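import Cfsg.Agent.Classical.Orth.Omega

/-!
Vanishing of the first cohomology of small orthogonal groups over the field with two elements on
the natural module: a crossed homomorphism normalised on a fixed-point-free generator is decided by
its value at the second generator.
-/

set_option autoImplicit false

namespace CfsgLib.OrthH1

open Cfsg.Geo CfsgLib.OrthGeo CfsgLib.Classical.Orth
open scoped Matrix MatrixGroups commutatorElement

variable {ι : Type} [Fintype ι] [DecidableEq ι]

/-- The vector with the given binary code. -/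
def vec (code : ι → ℕ) (x : ℕ) : ι → ZMod 2 := fun c => if Nat.testBit x (code c) then 1 else 0

/-- The polar form on codes. -/
def nb (q : ℕ → Bool) (x y : ℕ) : Bool := (q (x ^^^ y) ^^ q x) ^^ q y

/-- A reflection on codes. -/
def nrefl (q : ℕ → Bool) (u x : ℕ) : ℕ := if nb q x u then x ^^^ u else x

/-- A product of reflections on codes. -/
def nA (q : ℕ → Bool) (ps : List (ℕ × ℕ)) (x : ℕ) : ℕ :=
  ps.foldr (fun p y => nrefl q p.1 (nrefl q p.2 y)) x

/-- The second generator on codes. -/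
def nB (q : ℕ → Bool) (ps : List (ℕ × ℕ)) (v₀ x : ℕ) : ℕ := nrefl q v₀ (nrefl q (nA q ps v₀) x)

/-- A word in the generators on codes. -/
def nact (q : ℕ → Bool) (ps : List (ℕ × ℕ)) (v₀ : ℕ) (w : List Bool) (x : ℕ) : ℕ :=
  w.foldr (fun g y => if g then nB q ps v₀ y else nA q ps y) x

/-- The value of a normalised crossed homomorphism on a word. -/
def neval (q : ℕ → Bool) (ps : List (ℕ × ℕ)) (v₀ : ℕ) (w : List Bool) (c : ℕ) : ℕ :=
  w.foldr (fun g y => if g then c ^^^ nB q ps v₀ y else nA q ps y) 0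

/-- Each point of the list is an image of an earlier one. -/
def chainOK (f g : ℕ → ℕ) : List ℕ → List ℕ → Bool
  | _, [] => true
  | seen, x :: rest => seen.any (fun y => f y == x || g y == x) && chainOK f g (x :: seen) rest

/-- The data of a certificate. -/
structure Data where
  n : ℕ
  q : ℕ → Bool
  ps : List (ℕ × ℕ)
  v₀ : ℕ
  orb : List ℕ
  rels : List (List Bool)

/-- The finite checks. -/
structure Check (code : ι → ℕ) (Q : (ι → ZMod 2) → ZMod 2) (d : Data) : Prop where
  code_surj : ∀ i < d.n, ∃ c, code c = i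
  dim : Fintype.card ι = d.n
  code_lt : ∀ c, code c < d.n
  q_ok : ∀ x < 2 ^ d.n, Q (vec code x) = if d.q x then 1 else 0
  pairs : ∀ p ∈ d.ps, p.1 < 2 ^ d.n ∧ p.2 < 2 ^ d.n ∧ d.q p.1 = true ∧ d.q p.2 = true ∧ nb d.q p.1 p.2 = true
  start : d.v₀ < 2 ^ d.n ∧ d.q d.v₀ = true ∧ nb d.q d.v₀ (nA d.q d.ps d.v₀) = true
  fpf : ∀ x < 2 ^ d.n, nA d.q d.ps x = x → x = 0
  orbit : chainOK (nA d.q d.ps) (nB d.q d.ps d.v₀) [d.v₀] d.orb = true
  cover : ∀ x < 2 ^ d.n, d.q x = true → x ∈ d.v₀ :: d.orb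
  rels_one : ∀ w ∈ d.rels, ∀ x < 2 ^ d.n, nact d.q d.ps d.v₀ w x = x
  kill : ∀ c < 2 ^ d.n, (∀ w ∈ d.rels, neval d.q d.ps d.v₀ w c = 0) → c = 0

variable {code : ι → ℕ} {Q : (ι → ZMod 2) → ZMod 2} {d : Data}

theorem vec_xor (x y : ℕ) : vec code (x ^^^ y) = vec code x + vec code y := by
  funext c
  simp only [vec, Pi.add_apply, Nat.testBit_xor]
  cases Nat.testBit x (code c) <;> cases Nat.testBit y (code c) <;> decide

theorem vec_zero : vec code 0 = 0 := by funext c; simp [vec]

theorem vec_inj (h : Check code Q d) {x y : ℕ} (hx : x < 2 ^ d.n) (hy : y < 2 ^ d.n)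
    (e : vec code x = vec code y) : x = y := by
  refine Nat.eq_of_testBit_eq fun i => ?_
  by_cases hi : i < d.n
  · obtain ⟨c, rfl⟩ := h.code_surj i hi
    have := congrFun e c
    simp only [vec] at this
    revert this
    cases Nat.testBit x (code c) <;> cases Nat.testBit y (code c) <;> decide
  · rw [Nat.testBit_eq_false_of_lt (hx.trans_le (Nat.pow_le_pow_right two_pos (by omega))),
      Nat.testBit_eq_false_of_lt (hy.trans_le (Nat.pow_le_pow_right two_pos (by omega)))]

theorem exists_code (h : Check code Q d) (v : ι → ZMod 2) : ∃ x < 2 ^ d.n, vec code x = v := by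
  have hb : Function.Bijective fun x : Fin (2 ^ d.n) => vec code (x : ℕ) := by
    rw [Fintype.bijective_iff_injective_and_card]
    exact ⟨fun x y e => Fin.ext (vec_inj h x.2 y.2 e), by simp [h.dim]⟩
  obtain ⟨x, hx⟩ := hb.2 v
  exact ⟨x, x.2, hx⟩

theorem xor_lt {n x y : ℕ} (hx : x < 2 ^ n) (hy : y < 2 ^ n) : x ^^^ y < 2 ^ n :=
  Nat.bitwise_lt_two_pow hx hy

theorem nrefl_lt {q : ℕ → Bool} {n u x : ℕ} (hu : u < 2 ^ n) (hx : x < 2 ^ n) :
    nrefl q u x < 2 ^ n := by
  rw [nrefl]; split_ifs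
  exacts [xor_lt hx hu, hx]

theorem nA_lt (h : Check code Q d) {x : ℕ} (hx : x < 2 ^ d.n) : nA d.q d.ps x < 2 ^ d.n := by
  have : ∀ l : List (ℕ × ℕ), (∀ p ∈ l, p ∈ d.ps) → nA d.q l x < 2 ^ d.n := by
    intro l
    induction l with
    | nil => intro _; exact hx
    | cons p l ih =>
      intro hl
      obtain ⟨h1, h2, -⟩ := h.pairs p (hl p (by simp))
      exact nrefl_lt h1 (nrefl_lt h2 (ih fun r hr => hl r (List.mem_cons_of_mem _ hr)))
  exact this _ fun _ hp => hp

theorem zmod_two_ne_zero {a : ZMod 2} : a ≠ 0 ↔ a = 1 := by revert a; decide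

theorem q_ne_zero (h : Check code Q d) {u : ℕ} (hu : u < 2 ^ d.n) :
    Q (vec code u) ≠ 0 ↔ d.q u = true := by
  rw [h.q_ok u hu]; cases d.q u <;> decide

variable (hQ : IsNondegenerateQuadraticForm Q)

local notation "Iso" => Cfsg.isometryGroup (ZMod 2) Q

/-- Action of an isometry. -/
def app (g : Cfsg.isometryGroup (ZMod 2) Q) (v : ι → ZMod 2) : ι → ZMod 2 :=
  ((g : GL ι (ZMod 2)) : Matrix ι ι (ZMod 2)) *ᵥ v

theorem app_mul (g k : Iso) (v : ι → ZMod 2) : app (g * k) v = app g (app k v) := by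
  simp [app, Matrix.mulVec_mulVec]

theorem app_one (v : ι → ZMod 2) : app (1 : Iso) v = v := by simp [app]

theorem iso_ext {g k : Iso} (e : ∀ v, app g v = app k v) : g = k := Subtype.ext (OrthGeo.gl_ext e)

include hQ

theorem bform_vec (h : Check code Q d) {x y : ℕ} (hx : x < 2 ^ d.n) (hy : y < 2 ^ d.n) :
    bform hQ (vec code x) (vec code y) = if nb d.q x y then 1 else 0 := by
  have e := q_add hQ (vec code x) (vec code y)
  rw [← vec_xor, h.q_ok _ hx, h.q_ok _ hy, h.q_ok _ (xor_lt hx hy)] at e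
  rw [nb]
  revert e
  generalize bform hQ (vec code x) (vec code y) = z
  cases d.q (x ^^^ y) <;> cases d.q x <;> cases d.q y <;> revert z <;> decide

/-- The reflection with the given code. -/
noncomputable def R (code : ι → ℕ) (u : ℕ) : Cfsg.isometryGroup (ZMod 2) Q :=
  if h : Q (vec code u) ≠ 0 then refl hQ h else 1

theorem app_refl {v : ι → ZMod 2} (hv : Q v ≠ 0) (x : ι → ZMod 2) :
    app (refl hQ hv) x = x + bform hQ v x • v := by
  show (reflection hQ hv : Matrix ι ι (ZMod 2)) *ᵥ x = _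
  rw [reflection_mulVec hQ hv, zmod_two_ne_zero.1 hv, inv_one, one_mul]
  funext c
  simp [sub_eq_add_neg, CharTwo.neg_eq]

theorem app_R (h : Check code Q d) {u x : ℕ} (hu : u < 2 ^ d.n) (hq : d.q u = true) (hx : x < 2 ^ d.n) :
    app (R hQ code u) (vec code x) = vec code (nrefl d.q u x) := by
  rw [R, dif_pos ((q_ne_zero h hu).2 hq), app_refl, b_symm hQ, bform_vec hQ h hx hu, nrefl]
  split_ifs with e
  · rw [one_smul, vec_xor]
  · rw [zero_smul, add_zero]

theorem R_sq (u : ℕ) : R hQ code u * R hQ code u = 1 := by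
  rw [R]; split_ifs with e
  · exact Subtype.ext (reflection_mul_self hQ e)
  · exact mul_one 1

theorem R_inv (u : ℕ) : (R hQ code u)⁻¹ = R hQ code u := inv_eq_of_mul_eq_one_left (R_sq hQ u)

theorem conj_R (h : Check code Q d) (g : Iso) {u u' : ℕ} (hu : u < 2 ^ d.n) (hq : d.q u = true)
    (hu' : u' < 2 ^ d.n) (hq' : d.q u' = true) (e : app g (vec code u) = vec code u') :
    g * R hQ code u * g⁻¹ = R hQ code u' := by
  rw [R, dif_pos ((q_ne_zero h hu).2 hq), R, dif_pos ((q_ne_zero h hu').2 hq')]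
  exact Subtype.ext (conj_reflection hQ g.2 ((q_ne_zero h hu).2 hq) ((q_ne_zero h hu').2 hq') e)

/-- A pair of adjacent reflections multiplies to a commutator. -/
theorem pair_mem (h : Check code Q d) {u v : ℕ} (hu : u < 2 ^ d.n) (hv : v < 2 ^ d.n)
    (hqu : d.q u = true) (hqv : d.q v = true) (hb : nb d.q u v = true) :
    R hQ code u * R hQ code v ∈ Cfsg.Omega (ZMod 2) Q := by
  have hbv : nb d.q v u = true := by
    rw [nb, Nat.xor_comm]; rw [nb] at hb
    revert hb; cases d.q (u ^^^ v) <;> cases d.q u <;> cases d.q v <;> decide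
  have hbw : nb d.q (v ^^^ u) u = true := by
    rw [nb, Nat.xor_assoc, Nat.xor_self, Nat.xor_zero]
    rw [nb] at hbv
    revert hbv; cases d.q (v ^^^ u) <;> cases d.q u <;> cases d.q v <;> decide
  -- the product `g` of the two reflections moves `u` to `v`
  have hg : app (R hQ code u * R hQ code v) (vec code u) = vec code v := by
    rw [app_mul, app_R hQ h hv hqv hu, nrefl, if_pos hb, app_R hQ h hu hqu (xor_lt hu hv), nrefl,
      if_pos (by rwa [Nat.xor_comm u v]), Nat.xor_comm u v, Nat.xor_assoc, Nat.xor_self, Nat.xor_zero]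
  have e := conj_R hQ h _ hu hqu hv hqv hg
  set g := R hQ code u * R hQ code v
  have : g = ⁅R hQ code u, g⁆ := by
    rw [commutatorElement_def, R_inv, mul_assoc (R hQ code u) g, mul_assoc (R hQ code u), e]
  rw [this]
  exact Subgroup.commutator_mem_commutator (Subgroup.mem_top _) (Subgroup.mem_top _)

/-- The first generator. -/
noncomputable def genA (code : ι → ℕ) (d : Data) : Cfsg.isometryGroup (ZMod 2) Q :=
  (d.ps.map fun p => R hQ code p.1 * R hQ code p.2).prod

/-- The second generator. -/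
noncomputable def genB (code : ι → ℕ) (d : Data) : Cfsg.isometryGroup (ZMod 2) Q :=
  R hQ code d.v₀ * R hQ code (nA d.q d.ps d.v₀)

theorem app_genA (h : Check code Q d) {x : ℕ} (hx : x < 2 ^ d.n) :
    app (genA hQ code d) (vec code x) = vec code (nA d.q d.ps x) := by
  have : ∀ l : List (ℕ × ℕ), (∀ p ∈ l, p ∈ d.ps) →
      nA d.q l x < 2 ^ d.n ∧
      app (l.map fun p => R hQ code p.1 * R hQ code p.2).prod (vec code x) = vec code (nA d.q l x) := by
    intro l
    induction l with
    | nil => intro _; exact ⟨hx, by simp [app_one, nA]⟩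
    | cons p l ih =>
      intro hl
      obtain ⟨h1, h2, q1, q2, -⟩ := h.pairs p (hl p (by simp))
      obtain ⟨i1, i2⟩ := ih fun r hr => hl r (List.mem_cons_of_mem _ hr)
      refine ⟨nrefl_lt h1 (nrefl_lt h2 i1), ?_⟩
      rw [List.map_cons, List.prod_cons, app_mul, app_mul, i2, app_R hQ h h2 q2 i1,
        app_R hQ h h1 q1 (nrefl_lt h2 i1)]
      rfl
  exact (this _ fun _ hp => hp).2

theorem q_app (g : Iso) (v : ι → ZMod 2) : Q (app g v) = Q v := OrthGeo.mem_isometryGroup.1 g.2 v

theorem nA_q (h : Check code Q d) {x : ℕ} (hx : x < 2 ^ d.n) (hq : d.q x = true) :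
    d.q (nA d.q d.ps x) = true := by
  rw [← q_ne_zero h (nA_lt h hx), ← app_genA hQ h hx, q_app hQ]
  exact (q_ne_zero h hx).2 hq

theorem nB_lt (h : Check code Q d) {x : ℕ} (hx : x < 2 ^ d.n) : nB d.q d.ps d.v₀ x < 2 ^ d.n :=
  nrefl_lt h.start.1 (nrefl_lt (nA_lt h h.start.1) hx)

theorem app_genB (h : Check code Q d) {x : ℕ} (hx : x < 2 ^ d.n) :
    app (genB hQ code d) (vec code x) = vec code (nB d.q d.ps d.v₀ x) := by
  obtain ⟨hv, hqv, -⟩ := h.start
  rw [genB, app_mul, app_R hQ h (nA_lt h hv) (nA_q hQ h hv hqv) hx,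
    app_R hQ h hv hqv (nrefl_lt (nA_lt h hv) hx)]
  rfl

theorem nB_q (h : Check code Q d) {x : ℕ} (hx : x < 2 ^ d.n) (hq : d.q x = true) :
    d.q (nB d.q d.ps d.v₀ x) = true := by
  rw [← q_ne_zero h (nB_lt hQ h hx), ← app_genB hQ h hx, q_app hQ]
  exact (q_ne_zero h hx).2 hq

theorem genA_mem (h : Check code Q d) : genA hQ code d ∈ Cfsg.Omega (ZMod 2) Q := by
  refine list_prod_mem fun g hg => ?_
  obtain ⟨p, hp, rfl⟩ := List.mem_map.1 hg
  obtain ⟨h1, h2, q1, q2, hb⟩ := h.pairs p hp
  exact pair_mem hQ h h1 h2 q1 q2 hb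

theorem genB_mem (h : Check code Q d) : genB hQ code d ∈ Cfsg.Omega (ZMod 2) Q :=
  pair_mem hQ h h.start.1 (nA_lt h h.start.1) h.start.2.1 (nA_q hQ h h.start.1 h.start.2.1) h.start.2.2

/-- The two generators generate `Omega`. -/
theorem omega_le (h : Check code Q d)
    (hgen : ∀ g : Iso, g ∈ Subgroup.closure {r : Iso | ∃ (v : ι → ZMod 2) (hv : Q v ≠ 0), r = refl hQ hv}) :
    Cfsg.Omega (ZMod 2) Q ≤ Subgroup.closure {genA hQ code d, genB hQ code d} := by
  obtain ⟨hv, hqv, -⟩ := h.start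
  set a := genA hQ code d with ha
  set b := genB hQ code d with hb
  set K := Subgroup.closure ({a, b} : Set Iso)
  set r := R hQ code d.v₀ with hr
  have haK : a ∈ K := Subgroup.subset_closure (Set.mem_insert _ _)
  have hbK : b ∈ K := Subgroup.subset_closure (Set.mem_insert_of_mem _ rfl)
  -- the orbit
  let S : ℕ → Prop := fun u => u < 2 ^ d.n ∧ d.q u = true ∧ r * R hQ code u ∈ K
  have hr2 : r * r = 1 := R_sq hQ _
  have hS0 : S d.v₀ := ⟨hv, hqv, by rw [hr2]; exact one_mem K⟩
  have step : ∀ (g : Iso) (G₀ : ℕ → ℕ), g ∈ K → r * R hQ code (G₀ d.v₀) ∈ K →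
      (∀ x < 2 ^ d.n, app g (vec code x) = vec code (G₀ x)) →
      (∀ x < 2 ^ d.n, G₀ x < 2 ^ d.n) →
      (∀ x < 2 ^ d.n, d.q x = true → d.q (G₀ x) = true) → ∀ u, S u → S (G₀ u) := by
    rintro g G₀ hg h0 happ hlt hq u ⟨hu, hqu, huK⟩
    refine ⟨hlt u hu, hq u hu hqu, ?_⟩
    rw [← conj_R hQ h g hu hqu (hlt u hu) (hq u hu hqu) (happ u hu)]
    have e0 := conj_R hQ h g hv hqv (hlt _ hv) (hq _ hv hqv) (happ _ hv)
    rw [show r * (g * R hQ code u * g⁻¹) = r * R hQ code (G₀ d.v₀) * (g * (r * R hQ code u) * g⁻¹) by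
      rw [← e0, ← hr]
      calc r * (g * R hQ code u * g⁻¹) = r * g * (r * r) * R hQ code u * g⁻¹ := by
            rw [hr2]; group
        _ = _ := by group]
    exact mul_mem h0 (mul_mem (mul_mem hg huK) (inv_mem hg))
  have hSA := step a (nA d.q d.ps) haK hbK (fun x hx => app_genA hQ h hx) (fun x hx => nA_lt h hx)
    (fun x hx hq => nA_q hQ h hx hq)
  have hSB := step b (nB d.q d.ps d.v₀) hbK (by
      rw [← conj_R hQ h b hv hqv (nB_lt hQ h hv) (nB_q hQ h hv hqv) (app_genB hQ h hv), hb, genB, ← hr]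
      have e : r * (r * R hQ code (nA d.q d.ps d.v₀) * r * (r * R hQ code (nA d.q d.ps d.v₀))⁻¹) =
          b⁻¹ * b⁻¹ := by
        rw [hb, genB, ← hr, mul_inv_rev, R_inv, show r⁻¹ = r from R_inv hQ _]
        simp only [← mul_assoc, hr2, one_mul]
      rw [e]
      exact mul_mem (inv_mem hbK) (inv_mem hbK))
    (fun x hx => app_genB hQ h hx) (fun x hx => nB_lt hQ h hx) (fun x hx hq => nB_q hQ h hx hq)
  have hchain : ∀ (rest seen : List ℕ), chainOK (nA d.q d.ps) (nB d.q d.ps d.v₀) seen rest = true →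
      (∀ x ∈ seen, S x) → ∀ x ∈ rest, S x := by
    intro rest
    induction rest with
    | nil => simp
    | cons y rest ih =>
      intro seen hc hseen
      simp only [chainOK, Bool.and_eq_true, List.any_eq_true, Bool.or_eq_true, beq_iff_eq] at hc
      obtain ⟨⟨z, hz, hzy⟩, hc⟩ := hc
      have hy : S y := by
        rcases hzy with e | e <;> rw [← e]
        exacts [hSA z (hseen z hz), hSB z (hseen z hz)]
      exact List.forall_mem_cons.2 ⟨hy, ih (y :: seen) hc (List.forall_mem_cons.2 ⟨hy, hseen⟩)⟩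
  have hall : ∀ (v : ι → ZMod 2) (hv' : Q v ≠ 0), r * refl hQ hv' ∈ K := by
    intro v hv'
    obtain ⟨x, hx, rfl⟩ := exists_code h v
    have hmem := h.cover x hx ((q_ne_zero h hx).1 hv')
    have hSx : S x := List.forall_mem_cons.2 ⟨hS0, hchain _ _ h.orbit (List.forall_mem_singleton.2 hS0)⟩ x hmem
    have := hSx.2.2
    rwa [R, dif_pos hv'] at this
  have hpair : ∀ u v : ℕ, Q (vec code u) ≠ 0 → Q (vec code v) ≠ 0 → R hQ code u * R hQ code v ∈ K := by
    intro u v hu hw
    have h1 := mul_mem (inv_mem (hall _ hu)) (hall _ hw)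
    rw [mul_inv_rev, show r⁻¹ = r from R_inv hQ _] at h1
    rw [R, dif_pos hu, R, dif_pos hw]
    rw [show (refl hQ hu)⁻¹ = refl hQ hu from inv_eq_of_mul_eq_one_left (Subtype.ext (reflection_mul_self hQ hu)),
      mul_assoc, ← mul_assoc r r, hr2, one_mul] at h1
    exact h1
  -- conjugation by a reflection
  have hrefl : ∀ (v : ι → ZMod 2) (hv' : Q v ≠ 0), ∀ k ∈ K, refl hQ hv' * k * (refl hQ hv')⁻¹ ∈ K := by
    intro v hv'
    obtain ⟨w, hw, rfl⟩ := exists_code h v
    rw [show refl hQ hv' = R hQ code w by rw [R, dif_pos hv'], R_inv]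
    intro k hk
    induction hk using Subgroup.closure_induction with
    | mem g hg =>
      rcases hg with rfl | rfl
      · rw [ha, genA]
        have : ∀ l : List (ℕ × ℕ), (∀ p ∈ l, p ∈ d.ps) →
            R hQ code w * (l.map fun p => R hQ code p.1 * R hQ code p.2).prod * R hQ code w ∈ K := by
          intro l
          induction l with
          | nil => intro _; simp [R_sq]
          | cons p l ih =>
            intro hl
            obtain ⟨h1, h2, q1, q2, -⟩ := h.pairs p (hl p (by simp))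
            rw [List.map_cons, List.prod_cons]
            have e : R hQ code w * (R hQ code p.1 * R hQ code p.2 *
                (l.map fun p => R hQ code p.1 * R hQ code p.2).prod) * R hQ code w =
                R hQ code w * R hQ code p.1 * (R hQ code p.2 * R hQ code w) *
                  (R hQ code w * (l.map fun p => R hQ code p.1 * R hQ code p.2).prod * R hQ code w) := by
              simp only [mul_assoc]; rw [← mul_assoc (R hQ code w) (R hQ code w), R_sq, one_mul]
            rw [e]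
            exact mul_mem (mul_mem (hpair _ _ hv' ((q_ne_zero h h1).2 q1))
              (hpair _ _ ((q_ne_zero h h2).2 q2) hv')) (ih fun s hs => hl s (List.mem_cons_of_mem _ hs))
        exact this _ fun _ hp => hp
      · rw [hb, genB, ← mul_assoc, mul_assoc (R hQ code w * R hQ code d.v₀)]
        exact mul_mem (hpair _ _ hv' ((q_ne_zero h hv).2 hqv))
          (hpair _ _ ((q_ne_zero h (nA_lt h hv)).2 (nA_q hQ h hv hqv)) hv')
    | one => rw [mul_one, R_sq]; exact one_mem K
    | mul x y _ _ hx hy =>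
      rw [show R hQ code w * (x * y) * R hQ code w =
        R hQ code w * x * (R hQ code w * R hQ code w) * y * R hQ code w by rw [R_sq]; group]
      have := mul_mem hx hy
      simpa only [mul_assoc] using this
    | inv x _ hx =>
      have := inv_mem hx
      simpa only [mul_inv_rev, R_inv, mul_assoc] using this
  have hKn : K.Normal := ⟨fun k hk g => by
    suffices ∀ k ∈ K, g * k * g⁻¹ ∈ K from this k hk
    refine Subgroup.closure_induction_left (p := fun x _ => ∀ k ∈ K, x * k * x⁻¹ ∈ K)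
      (fun k hk => by simpa using hk) ?_ ?_ (hgen g)
    · rintro _ ⟨v, hv', rfl⟩ y _ ih k hk
      have := hrefl v hv' _ (ih k hk)
      simpa only [mul_inv_rev, mul_assoc] using this
    · rintro _ ⟨v, hv', rfl⟩ y _ ih k hk
      have := hrefl v hv' _ (ih k hk)
      rw [show ((refl hQ hv')⁻¹ : Iso) = refl hQ hv' from
        inv_eq_of_mul_eq_one_left (Subtype.ext (reflection_mul_self hQ hv'))]
      simpa only [mul_inv_rev, mul_assoc] using this⟩
  haveI := hKn
  have hcyc : ∀ g : Iso, (g : Iso ⧸ K) ∈ Subgroup.zpowers (r : Iso ⧸ K) := by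
    intro g
    have hmap : Subgroup.closure {x : Iso | ∃ (v : ι → ZMod 2) (hv : Q v ≠ 0), x = refl hQ hv} ≤
        (Subgroup.zpowers (r : Iso ⧸ K)).comap (QuotientGroup.mk' K) := by
      rw [Subgroup.closure_le]
      rintro _ ⟨v, hv', rfl⟩
      show (QuotientGroup.mk' K) (refl hQ hv') ∈ Subgroup.zpowers (r : Iso ⧸ K)
      have e : (QuotientGroup.mk (refl hQ hv') : Iso ⧸ K) = QuotientGroup.mk r := by
        refine QuotientGroup.eq.2 ?_
        rw [show (refl hQ hv')⁻¹ = refl hQ hv' from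
          inv_eq_of_mul_eq_one_left (Subtype.ext (reflection_mul_self hQ hv'))]
        have := inv_mem (hall v hv')
        rwa [mul_inv_rev, show r⁻¹ = r from R_inv hQ _, show (refl hQ hv')⁻¹ = refl hQ hv' from
          inv_eq_of_mul_eq_one_left (Subtype.ext (reflection_mul_self hQ hv'))] at this
      rw [QuotientGroup.mk'_apply, e]
      exact Subgroup.mem_zpowers _
    exact hmap (hgen g)
  refine Subgroup.commutator_le.2 fun x _ y _ => ?_
  rw [← QuotientGroup.eq_one_iff]
  obtain ⟨i, hi⟩ := hcyc x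
  obtain ⟨j, hj⟩ := hcyc y
  rw [← QuotientGroup.mk'_apply, map_commutatorElement, QuotientGroup.mk'_apply, QuotientGroup.mk'_apply,
    ← hi, ← hj, commutatorElement_eq_one_iff_mul_comm]
  exact zpow_mul_comm _ i j

/-- Every crossed homomorphism is principal. -/
theorem principal (h : Check code Q d)
    (hgen : ∀ g : Iso, g ∈ Subgroup.closure {r : Iso | ∃ (v : ι → ZMod 2) (hv : Q v ≠ 0), r = refl hQ hv})
    (f : ↥(Cfsg.Omega (ZMod 2) Q) → (ι → ZMod 2))
    (hf : ∀ g k : ↥(Cfsg.Omega (ZMod 2) Q), f (g * k) = f g + app (g : Iso) (f k)) :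
    ∃ v : ι → ZMod 2, ∀ g : ↥(Cfsg.Omega (ZMod 2) Q), f g = app (g : Iso) v - v := by
  set A : ↥(Cfsg.Omega (ZMod 2) Q) := ⟨genA hQ code d, genA_mem hQ h⟩ with hA
  set B : ↥(Cfsg.Omega (ZMod 2) Q) := ⟨genB hQ code d, genB_mem hQ h⟩ with hB
  let L : (ι → ZMod 2) →ₗ[ZMod 2] (ι → ZMod 2) :=
    Matrix.mulVecLin (((genA hQ code d : Iso) : GL ι (ZMod 2)) : Matrix ι ι (ZMod 2)) - LinearMap.id
  have hL : Function.Surjective L := by
    refine LinearMap.injective_iff_surjective.1 ?_
    rw [injective_iff_map_eq_zero]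
    intro v hv
    obtain ⟨x, hx, rfl⟩ := exists_code h v
    have e : app (genA hQ code d) (vec code x) = vec code x := sub_eq_zero.1 hv
    rw [app_genA hQ h hx] at e
    rw [h.fpf x hx (vec_inj h (nA_lt h hx) hx e), vec_zero]
  obtain ⟨v, hv⟩ := hL (f A)
  refine ⟨v, ?_⟩
  let f' : ↥(Cfsg.Omega (ZMod 2) Q) → (ι → ZMod 2) := fun g => f g - (app (g : Iso) v - v)
  have hadd : ∀ (g : Iso) (x y : ι → ZMod 2), app g (x + y) = app g x + app g y :=
    fun g x y => Matrix.mulVec_add _ _ _
  have hsub : ∀ (g : Iso) (x y : ι → ZMod 2), app g (x - y) = app g x - app g y :=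
    fun g x y => Matrix.mulVec_sub _ _ _
  have hf' : ∀ g k, f' (g * k) = f' g + app (g : Iso) (f' k) := by
    intro g k
    simp only [f', hf, Subgroup.coe_mul, app_mul, hsub]
    abel
  suffices hz : ∀ g, f' g = 0 from fun g => sub_eq_zero.1 (hz g)
  have h1 : f' 1 = 0 := by
    have := hf' 1 1
    simp [app_one] at this
    exact this
  have hA0 : f' A = 0 := sub_eq_zero.2 hv.symm
  obtain ⟨c, hc, hcB⟩ := exists_code h (f' B)
  let word : List Bool → ↥(Cfsg.Omega (ZMod 2) Q) := fun w => (w.map fun g => if g then B else A).prod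
  have hword : ∀ w, f' (word w) = vec code (neval d.q d.ps d.v₀ w c) ∧ neval d.q d.ps d.v₀ w c < 2 ^ d.n ∧
      ∀ x < 2 ^ d.n, app (word w : Iso) (vec code x) = vec code (nact d.q d.ps d.v₀ w x) ∧
        nact d.q d.ps d.v₀ w x < 2 ^ d.n := by
    intro w
    induction w with
    | nil => exact ⟨by simp [word, h1, neval, vec_zero], Nat.two_pow_pos _,
        fun x hx => ⟨by simp [word, app_one, nact], hx⟩⟩
    | cons g w ih =>
      obtain ⟨i1, i2, i3⟩ := ih
      have e : word (g :: w) = (if g then B else A) * word w := by simp [word]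
      rw [e]
      cases g
      · refine ⟨?_, nA_lt h i2, fun x hx => ⟨?_, nA_lt h (i3 x hx).2⟩⟩
        · rw [if_neg (by simp), hf', hA0, zero_add, i1]
          exact app_genA hQ h i2
        · rw [if_neg (by simp), Subgroup.coe_mul, app_mul, (i3 x hx).1]
          exact app_genA hQ h (i3 x hx).2
      · refine ⟨?_, xor_lt hc (nB_lt hQ h i2), fun x hx => ⟨?_, nB_lt hQ h (i3 x hx).2⟩⟩
        · rw [if_pos rfl, hf', i1, ← hcB]
          show vec code c + app (genB hQ code d) _ = _
          rw [app_genB hQ h i2, ← vec_xor]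
          rfl
        · rw [if_pos rfl, Subgroup.coe_mul, app_mul, (i3 x hx).1]
          exact app_genB hQ h (i3 x hx).2
  have hc0 : c = 0 := by
    refine h.kill c hc fun w hw => ?_
    obtain ⟨i1, i2, i3⟩ := hword w
    have e : word w = 1 := by
      refine Subtype.ext (iso_ext fun u => ?_)
      obtain ⟨x, hx, rfl⟩ := exists_code h u
      rw [(i3 x hx).1, h.rels_one w hw x hx, Subgroup.coe_one, app_one]
    refine vec_inj h i2 (Nat.two_pow_pos _) ?_
    rw [← i1, e, h1, vec_zero]
  have hB0 : f' B = 0 := by rw [← hcB, hc0, vec_zero]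
  intro g
  have key : ∀ x ∈ Subgroup.closure ({genA hQ code d, genB hQ code d} : Set Iso),
      ∀ hx : x ∈ Cfsg.Omega (ZMod 2) Q, f' ⟨x, hx⟩ = 0 := by
    let T : Subgroup ↥(Cfsg.Omega (ZMod 2) Q) :=
      { carrier := {g | f' g = 0}
        one_mem' := h1
        mul_mem' := fun {x y} hx hy => by
          show f' (x * y) = 0
          rw [hf', (show f' x = 0 from hx), (show f' y = 0 from hy), zero_add]
          exact Matrix.mulVec_zero _
        inv_mem' := fun {x} hx => by
          show f' x⁻¹ = 0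
          have := hf' x⁻¹ x
          rw [inv_mul_cancel, h1, (show f' x = 0 from hx)] at this
          rw [show app ((x⁻¹ : ↥(Cfsg.Omega (ZMod 2) Q)) : Iso) 0 = 0 from Matrix.mulVec_zero _, add_zero] at this
          exact this.symm }
    have hle : Subgroup.closure ({genA hQ code d, genB hQ code d} : Set Iso) ≤
        T.map (Cfsg.Omega (ZMod 2) Q).subtype := by
      rw [Subgroup.closure_le]
      rintro x (rfl | rfl)
      exacts [⟨A, hA0, rfl⟩, ⟨B, hB0, rfl⟩]
    intro x hx hx'
    obtain ⟨y, hy, rfl⟩ := hle hx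
    exact hy
  exact key g (omega_le hQ h hgen g.2) g.2

end CfsgLib.OrthH1
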