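import Cfsg.Agent.OrthH1.Basic

/-!
The certificates for the orthogonal groups of dimensions four, six and eight over two elements.
-/

set_option autoImplicit false

namespace CfsgLib.OrthH1

open Cfsg.Geo CfsgLib.OrthGeo CfsgLib.Classical.Orth
open scoped Matrix MatrixGroups

/-- The form of plus type on codes. -/
def qPlus (m x : ℕ) : Bool :=
  (List.range m).foldr (fun i a => (Nat.testBit x i && Nat.testBit x (m + i)) ^^ a) false

/-- The form of minus type on codes. -/
def qMinus (m x : ℕ) : Bool :=
  qPlus m x ^^ (Nat.testBit x (2 * m) ^^ (Nat.testBit x (2 * m) && Nat.testBit x (2 * m + 1)) ^^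
    Nat.testBit x (2 * m + 1))

/-- The code of a coordinate. -/
def codePlus (m : ℕ) : Fin m ⊕ Fin m → ℕ
  | .inl i => i
  | .inr i => m + i

/-- The code of a coordinate. -/
def codeMinus (m : ℕ) : (Fin m ⊕ Fin m) ⊕ Fin 2 → ℕ
  | .inl c => codePlus m c
  | .inr j => 2 * m + j

/-- The certificate in dimension four. -/
def dataFour : Data where
  n := 4
  q := qMinus 1
  ps := [(12, 8), (13, 14)]
  v₀ := 3
  orb := [9, 12, 10, 8, 6, 5, 14, 13, 4]
  rels := [[true, true, true], [false, false, true, false, false, true]]

/-- The certificate in dimension six. -/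
def dataSix : Data where
  n := 6
  q := qMinus 2
  ps := [(34, 49), (50, 56), (31, 32)]
  v₀ := 5
  orb := [22, 48, 19, 25, 35, 38, 54, 28, 63, 41, 36, 32, 10, 31, 44, 47, 50, 20, 51, 16, 11, 57,
    18, 60, 33, 17, 13, 14, 34, 56, 52, 7, 24, 49, 40]
  rels := [[true, true, true], [false, false, true, false, false, true, false, false, true, false, false, true, false, false, true]]

/-- The certificate in dimension eight. -/
def dataEight : Data where
  n := 8
  q := qPlus 4
  ps := [(139, 173), (47, 25), (122, 84), (228, 251)]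
  v₀ := 17
  orb := [122, 211, 107, 34, 184, 169, 181, 139, 241, 227, 68, 151, 154, 197, 242, 116, 47, 86, 62,
    89, 191, 136, 147, 101, 221, 38, 71, 167, 70, 50, 138, 212, 108, 127, 248, 233, 31, 98,
    182, 156, 77, 92, 61, 177, 124, 239, 35, 100, 168, 218, 214, 172, 58, 232, 203, 141, 53,
    79, 143, 202, 109, 149, 201, 209, 99, 43, 199, 142, 140, 25, 247, 238, 94, 158, 57, 23,
    254, 216, 42, 200, 244, 81, 229, 69, 27, 114, 173, 228, 166, 91, 162, 49, 163, 39, 84, 19,
    178, 188, 196, 145, 78, 152, 54, 46, 226, 198, 121, 119, 29, 76, 253, 137, 113, 251, 187,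
    21, 223, 83, 106]
  rels := [[true, true, true], [false, false, true, false, false, true, false, false, true, false, false, true, false, false, true, false, false, true, false, false, true, false, false, true, false, false, true]]

theorem checkFour : Check (codeMinus 1) (Cfsg.quadFormMinus 1 (ZMod 2) 1 1) dataFour where
  code_surj := by decide +kernel
  dim := by decide
  code_lt := by decide +kernel
  q_ok := by decide +kernel
  pairs := by decide +kernel
  start := by decide +kernel
  fpf := by decide +kernel
  orbit := by decide +kernel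
  cover := by decide +kernel
  rels_one := by decide +kernel
  kill := by decide +kernel

theorem checkSix : Check (codeMinus 2) (Cfsg.quadFormMinus 2 (ZMod 2) 1 1) dataSix where
  code_surj := by decide +kernel
  dim := by decide
  code_lt := by decide +kernel
  q_ok := by decide +kernel
  pairs := by decide +kernel
  start := by decide +kernel
  fpf := by decide +kernel
  orbit := by decide +kernel
  cover := by decide +kernel
  rels_one := by decide +kernel
  kill := by decide +kernel

theorem checkEight : Check (codePlus 4) (Cfsg.quadFormPlus 4 (ZMod 2)) dataEight where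
  code_surj := by decide +kernel
  dim := by decide
  code_lt := by decide +kernel
  q_ok := by decide +kernel
  pairs := by decide +kernel
  start := by decide +kernel
  fpf := by decide +kernel
  orbit := by decide +kernel
  cover := by decide +kernel
  rels_one := by decide +kernel
  kill := by decide +kernel

/-- A base on which isometries can be straightened by at most two reflections. -/
def genOK (q : ℕ → Bool) (n : ℕ) : List ℕ → List ℕ → Bool
  | P, [] => (List.range (2 ^ n)).all fun x => (P.foldr (fun b l => l ++ l.map (b ^^^ ·)) [0]).contains x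
  | P, b :: bs => (decide (b < 2 ^ n) && q b &&
      (List.range (2 ^ n)).all fun x =>
        !(q x && P.all fun p => nb q x p == nb q b p) || x == b || nb q x b ||
          (List.range (2 ^ n)).any fun w =>
            q w && nb q x w && nb q w b && P.all fun p => nb q w p == nb q b p) && genOK q n (b :: P) bs

variable {ι : Type} [Fintype ι] [DecidableEq ι] {code : ι → ℕ} {Q : (ι → ZMod 2) → ZMod 2} {d : Data}

theorem gen_of_chain (h : Check code Q d) (hQ : IsNondegenerateQuadraticForm Q) :
    ∀ (rest P : List ℕ), genOK d.q d.n P rest = true → (∀ p ∈ P, p < 2 ^ d.n) →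
      ∀ g : Cfsg.isometryGroup (ZMod 2) Q, (∀ p ∈ P, app g (vec code p) = vec code p) →
        g ∈ Subgroup.closure {r : Cfsg.isometryGroup (ZMod 2) Q |
          ∃ (v : ι → ZMod 2) (hv : Q v ≠ 0), r = refl hQ hv} := by
  intro rest
  induction rest with
  | nil =>
    intro P hok hlt g hg
    simp only [genOK, List.all_eq_true, List.mem_range, List.contains_iff_mem] at hok
    have : g = 1 := by
      refine iso_ext fun v => ?_
      rw [app_one]
      obtain ⟨x, hx, rfl⟩ := exists_code h v
      have hspan : ∀ l : List ℕ, (∀ p ∈ l, p ∈ P) →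
          ∀ y ∈ l.foldr (fun b l => l ++ l.map (b ^^^ ·)) [0], app g (vec code y) = vec code y := by
        intro l
        induction l with
        | nil =>
          intro _ y hy
          rw [List.foldr_nil, List.mem_singleton] at hy
          rw [hy, vec_zero]
          exact Matrix.mulVec_zero _
        | cons b l ih =>
          intro hl y hy
          have ih := ih fun r hr => hl r (List.mem_cons_of_mem _ hr)
          rw [List.foldr_cons, List.mem_append, List.mem_map] at hy
          rcases hy with hy | ⟨z, hz, rfl⟩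
          · exact ih y hy
          · rw [vec_xor]
            show ((g : GL ι (ZMod 2)) : Matrix ι ι (ZMod 2)) *ᵥ _ = _
            rw [Matrix.mulVec_add]
            exact congrArg₂ (· + ·) (hg b (hl b (by simp))) (ih z hz)
      exact hspan P (fun _ hp => hp) x (hok x hx)
    rw [this]
    exact one_mem _
  | cons b bs ih =>
    intro P hok hlt g hg
    simp only [genOK, Bool.and_eq_true, decide_eq_true_eq, List.all_eq_true, List.mem_range,
      Bool.or_eq_true, List.any_eq_true] at hok
    obtain ⟨⟨⟨hb, hqb⟩, hstep⟩, hrec⟩ := hok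
    have hR : ∀ u < 2 ^ d.n, d.q u = true → R hQ code u ∈ Subgroup.closure
        {r : Cfsg.isometryGroup (ZMod 2) Q | ∃ (v : ι → ZMod 2) (hv : Q v ≠ 0), r = refl hQ hv} := by
      intro u hu hq
      rw [R, dif_pos ((q_ne_zero h hu).2 hq)]
      exact Subgroup.subset_closure ⟨_, _, rfl⟩
    obtain ⟨x, hx, hxe⟩ := exists_code h (app g (vec code b))
    have hqx : d.q x = true := by
      rw [← q_ne_zero h hx, hxe, q_app hQ]
      exact (q_ne_zero h hb).2 hqb
    have hPx : ∀ p ∈ P, nb d.q x p = nb d.q b p := by
      intro p hp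
      have e1 : bform hQ (vec code x) (vec code p) = bform hQ (vec code b) (vec code p) := by
        conv_lhs => rw [hxe, ← hg p hp]
        exact OrthGeo.isometry_b hQ g.2 _ _
      rw [bform_vec hQ h hx (hlt p hp), bform_vec hQ h hb (hlt p hp)] at e1
      revert e1
      cases nb d.q x p <;> cases nb d.q b p <;> decide
    -- straighten the image of `b` by an element fixing `P`
    have move : ∀ u v : ℕ, u < 2 ^ d.n → v < 2 ^ d.n → d.q u = true → d.q v = true → nb d.q u v = true →
        d.q (u ^^^ v) = true ∧ app (R hQ code (u ^^^ v)) (vec code u) = vec code v ∧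
        ∀ p < 2 ^ d.n, nb d.q u p = nb d.q v p → app (R hQ code (u ^^^ v)) (vec code p) = vec code p := by
      intro u v hu hv qu qv huv
      have hq : d.q (u ^^^ v) = true := by
        rw [nb] at huv; revert huv
        cases d.q (u ^^^ v) <;> simp [qu, qv]
      have hbf : ∀ p < 2 ^ d.n, bform hQ (vec code (u ^^^ v)) (vec code p) =
          bform hQ (vec code u) (vec code p) + bform hQ (vec code v) (vec code p) := fun p _ => by
        rw [vec_xor, map_add, LinearMap.add_apply]
      refine ⟨hq, ?_, fun p hp hpe => ?_⟩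
      · rw [app_R hQ h (xor_lt hu hv) hq hu, nrefl, if_pos, ← Nat.xor_assoc, Nat.xor_self, Nat.zero_xor]
        rw [nb, ← Nat.xor_assoc, Nat.xor_self, Nat.zero_xor, qv, qu, hq]
        rfl
      · rw [R, dif_pos ((q_ne_zero h (xor_lt hu hv)).2 hq), app_refl, hbf p hp, bform_vec hQ h hu hp,
          bform_vec hQ h hv hp, hpe, CharTwo.add_self_eq_zero, zero_smul, add_zero]
    obtain ⟨k, hkm, hkb, hkP⟩ : ∃ k ∈ Subgroup.closure
        {r : Cfsg.isometryGroup (ZMod 2) Q | ∃ (v : ι → ZMod 2) (hv : Q v ≠ 0), r = refl hQ hv},
        app k (vec code x) = vec code b ∧ ∀ p ∈ P, app k (vec code p) = vec code p := by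
      rcases hstep x hx with ((h1 | h1) | h1) | h1
      · exfalso
        simp only [Bool.not_eq_true', Bool.and_eq_false_iff, List.all_eq_false, beq_iff_eq] at h1
        rcases h1 with h1 | ⟨p, hp, hp'⟩
        · rw [hqx] at h1; cases h1
        · exact hp' (hPx p hp)
      · rw [beq_iff_eq] at h1
        exact ⟨1, one_mem _, by rw [h1, app_one], fun p _ => app_one _⟩
      · obtain ⟨hq, e1, e2⟩ := move x b hx hb hqx hqb h1
        exact ⟨_, hR _ (xor_lt hx hb) hq, e1, fun p hp => e2 p (hlt p hp) (hPx p hp)⟩
      · obtain ⟨w, hw, ⟨⟨qw, hxw⟩, hwb⟩, hwP⟩ := h1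
        simp only [beq_iff_eq] at hwP
        obtain ⟨hq1, e1, e2⟩ := move x w hx hw hqx qw hxw
        obtain ⟨hq2, e3, e4⟩ := move w b hw hb qw hqb hwb
        refine ⟨_, mul_mem (hR _ (xor_lt hw hb) hq2) (hR _ (xor_lt hx hw) hq1),
          by rw [app_mul, e1, e3], fun p hp => ?_⟩
        rw [app_mul, e2 p (hlt p hp) ((hPx p hp).trans (hwP p hp).symm), e4 p (hlt p hp) (hwP p hp)]
    have := ih (b :: P) hrec (List.forall_mem_cons.2 ⟨hb, hlt⟩) (k * g)
      (List.forall_mem_cons.2 ⟨by rw [app_mul, ← hxe, hkb], fun p hp => by rw [app_mul, hg p hp, hkP p hp]⟩)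
    exact ((Subgroup.closure _).mul_mem_cancel_left hkm).1 this

/-- Generation by reflections away from the exceptional case. -/
theorem gen_of_hexc (hQ : IsNondegenerateQuadraticForm Q)
    (hexc : ¬ (Nat.card (ZMod 2) = 2 ∧ Fintype.card ι = 4)) (g : Cfsg.isometryGroup (ZMod 2) Q) :
    g ∈ Subgroup.closure {r : Cfsg.isometryGroup (ZMod 2) Q |
      ∃ (v : ι → ZMod 2) (hv : Q v ≠ 0), r = refl hQ hv} := by
  suffices ∀ x : GL ι (ZMod 2), x ∈ Cfsg.isometryGroup (ZMod 2) Q → x ∈ (Subgroup.closure
      {r : Cfsg.isometryGroup (ZMod 2) Q | ∃ (v : ι → ZMod 2) (hv : Q v ≠ 0), r = refl hQ hv}).map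
      (Cfsg.isometryGroup (ZMod 2) Q).subtype by
    obtain ⟨y, hy, e⟩ := this g g.2
    rwa [← show y = g from Subtype.ext e]
  intro x hx
  refine (Subgroup.closure_le _).2 ?_ (mem_closure_reflections hQ hexc hx)
  rintro _ ⟨a, ha, rfl⟩
  exact ⟨refl hQ ha, Subgroup.subset_closure ⟨a, ha, rfl⟩, rfl⟩

end CfsgLib.OrthH1
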